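import Mathlib

/-!
Frobenius' argument: elements close to the identity in a finite linear group commute.
-/

namespace CfsgLib.FrobJordan

open scoped InnerProductSpace commutatorElement ComplexConjugate

variable {G : Type*} [Group G] [Fintype G] {n : ℕ} (ρ : Representation ℂ G (Fin n → ℂ))

/-- Orbit embedding into a Euclidean space: makes the representation unitary. -/
noncomputable def Φ : (Fin n → ℂ) →ₗ[ℂ] EuclideanSpace ℂ (G × Fin n) where
  toFun v := WithLp.toLp 2 fun p => ρ p.1 v p.2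
  map_add' v w := by ext p; simp
  map_smul' c v := by ext p; simp

theorem inner_Φ (g : G) (v w : Fin n → ℂ) : ⟪Φ ρ (ρ g v), Φ ρ (ρ g w)⟫_ℂ = ⟪Φ ρ v, Φ ρ w⟫_ℂ := by
  simp only [Φ, LinearMap.coe_mk, AddHom.coe_mk, PiLp.inner_apply, RCLike.inner_apply]
  refine Fintype.sum_equiv ((Equiv.mulRight g).prodCongr (Equiv.refl _)) _ _ fun p => ?_
  simp [Module.End.mul_apply]

theorem norm_Φ (g : G) (v : Fin n → ℂ) : ‖Φ ρ (ρ g v)‖ = ‖Φ ρ v‖ := by
  rw [norm_eq_sqrt_re_inner (𝕜 := ℂ), norm_eq_sqrt_re_inner (𝕜 := ℂ), inner_Φ]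

theorem Φ_injective : Function.Injective (Φ ρ) := by
  intro v w h
  ext i
  have := congrArg (fun x : EuclideanSpace ℂ (G × Fin n) => x (1, i)) h
  simpa [Φ] using this

theorem Φ_ne_zero {v : Fin n → ℂ} (hv : v ≠ 0) : Φ ρ v ≠ 0 := fun h =>
  hv (Φ_injective ρ (h.trans (map_zero _).symm))

/-- `g` is within `r` of the scalar `c`. -/
def Bound (g : G) (c : ℂ) (r : ℝ) : Prop := ∀ v, ‖Φ ρ (ρ g v) - c • Φ ρ v‖ ≤ r * ‖Φ ρ v‖

/-- Small elements. -/
def Small (g : G) : Prop :=
  (∃ (c : ℂ) (r : ℝ), 0 ≤ r ∧ r < 1 / 2 ∧ Bound ρ g c r) ∧ ∃ s : ℝ, 0 ≤ s ∧ s < 1 ∧ Bound ρ g 1 s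

theorem bound_conj {g : G} {c : ℂ} {r : ℝ} (h : Bound ρ g c r) (x : G) :
    Bound ρ (x * g * x⁻¹) c r := by
  intro v
  have h1 : ρ (x * g * x⁻¹) v = ρ x (ρ g (ρ x⁻¹ v)) := by simp [Module.End.mul_apply]
  have h2 : ρ x (ρ x⁻¹ v) = v := by rw [← Module.End.mul_apply, ← map_mul, mul_inv_cancel, map_one, Module.End.one_apply]
  rw [h1]
  conv_lhs => rw [← h2]
  rw [← map_smul, ← map_sub, ← map_smul, ← map_sub]
  rw [h2, norm_Φ, map_sub, map_smul, ← norm_Φ ρ x⁻¹ v]
  exact h _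

theorem small_conj {g : G} (h : Small ρ g) (x : G) : Small ρ (x * g * x⁻¹) := by
  obtain ⟨⟨c, r, h0, hr, hb⟩, s, hs0, hs, hb'⟩ := h
  exact ⟨⟨c, r, h0, hr, bound_conj ρ hb x⟩, s, hs0, hs, bound_conj ρ hb' x⟩

theorem bound_commutator {a b : G} {c : ℂ} {r s : ℝ} (hr : 0 ≤ r) (hs : 0 ≤ s) (hb : Bound ρ b c r)
    (ha : Bound ρ a 1 s) : Bound ρ ⁅a, b⁆ 1 (2 * r * s) := by
  intro v
  set w := ρ (a⁻¹ * b⁻¹) v with hw
  have hv : ρ b (ρ a w) = v := by
    rw [hw, ← Module.End.mul_apply, ← Module.End.mul_apply, ← map_mul, ← map_mul]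
    simp [mul_assoc]
  have h1 : ρ ⁅a, b⁆ v = ρ a (ρ b w) := by
    rw [hw, ← Module.End.mul_apply, ← Module.End.mul_apply, ← map_mul, ← map_mul]
    simp [commutatorElement_def, mul_assoc]
  have hwn : ‖Φ ρ w‖ = ‖Φ ρ v‖ := norm_Φ ρ _ v
  set x := ρ b w - c • w with hx
  set y := ρ a w - w with hy
  have key : Φ ρ (ρ ⁅a, b⁆ v) - (1 : ℂ) • Φ ρ v =
      (Φ ρ (ρ a x) - (1 : ℂ) • Φ ρ x) - (Φ ρ (ρ b y) - c • Φ ρ y) := by
    rw [h1]
    conv_lhs => rw [← hv]
    simp only [hx, hy, map_sub, map_smul, smul_sub, one_smul]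
    abel
  rw [key]
  refine (norm_sub_le _ _).trans ?_
  have e1 : ‖Φ ρ x‖ ≤ r * ‖Φ ρ v‖ := by
    rw [hx, map_sub, map_smul, ← hwn]; exact hb w
  have e2 : ‖Φ ρ y‖ ≤ s * ‖Φ ρ v‖ := by
    rw [hy, map_sub, ← hwn]; simpa using ha w
  have e3 := (ha x).trans (mul_le_mul_of_nonneg_left e1 hs)
  have e4 := (hb y).trans (mul_le_mul_of_nonneg_left e2 hr)
  linarith

theorem eq_one_of_commute {a b : G} {s : ℝ} (hinj : Function.Injective ρ) (hs0 : 0 ≤ s) (hs : s < 1)
    (ha : Bound ρ a 1 s) (hcomm : Commute ⁅a, b⁆ b) : ⁅a, b⁆ = 1 := by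
  by_contra hne
  set u := ⁅a, b⁆ with hu
  have hu1 : ρ u ≠ 1 := fun h => hne (hinj (h.trans ρ.map_one.symm))
  set W := LinearMap.range (ρ u - 1) with hW
  have hWinv : ∀ w ∈ W, ρ u w ∈ W := by
    rintro _ ⟨x, rfl⟩
    exact ⟨ρ u x, by simp [map_sub]⟩
  haveI : Nontrivial W := Submodule.nontrivial_iff_ne_bot.mpr fun h => hu1 (by
    rw [hW, LinearMap.range_eq_bot, sub_eq_zero] at h
    exact h)
  obtain ⟨μ, hμ⟩ := Module.End.exists_eigenvalue ((ρ u).restrict hWinv)
  obtain ⟨⟨w, hwW⟩, hw⟩ := hμ.exists_hasEigenvector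
  have hw1 : ρ u w = μ • w := congrArg Subtype.val (Module.End.mem_eigenspace_iff.mp hw.1)
  have hw0 : w ≠ 0 := fun h => hw.2 (Subtype.ext h)
  have hμ1 : μ ≠ 1 := by
    rintro rfl
    obtain ⟨x, hx⟩ := hwW
    rw [one_smul] at hw1
    have hx' : ρ u x = x + w := by rw [← hx]; simp
    have hpow : ∀ k : ℕ, ρ (u ^ k) x = x + (k : ℂ) • w := by
      intro k
      induction k with
      | zero => simp
      | succ k ih =>
        rw [pow_succ', map_mul, Module.End.mul_apply, ih, map_add, map_smul, hx', hw1]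
        push_cast
        rw [add_smul, one_smul]
        abel
    have h2 := hpow (orderOf u)
    rw [pow_orderOf_eq_one, map_one, Module.End.one_apply] at h2
    have h3 : (orderOf u : ℂ) • w = 0 := by
      have := h2.symm
      rwa [add_eq_left] at this
    rcases smul_eq_zero.mp h3 with h | h
    · exact (orderOf_pos u).ne' (by exact_mod_cast h)
    · exact hw0 h
  set E := Module.End.eigenspace (ρ u) μ with hE
  have hEinv : ∀ v ∈ E, ρ b v ∈ E := by
    intro v hv
    rw [hE, Module.End.mem_eigenspace_iff] at hv ⊢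
    rw [← Module.End.mul_apply, ← map_mul, hcomm.eq, map_mul, Module.End.mul_apply, hv, map_smul]
  haveI : Nontrivial E := Submodule.nontrivial_iff_ne_bot.mpr fun h => hw0 (by
    rw [← Submodule.mem_bot (R := ℂ), ← h]
    exact Module.End.mem_eigenspace_iff.mpr hw1)
  obtain ⟨l, hl⟩ := Module.End.exists_eigenvalue ((ρ b).restrict hEinv)
  obtain ⟨⟨v, hvE⟩, hv⟩ := hl.exists_hasEigenvector
  have hv1 : ρ b v = l • v := congrArg Subtype.val (Module.End.mem_eigenspace_iff.mp hv.1)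
  have hv0 : v ≠ 0 := fun h => hv.2 (Subtype.ext h)
  have hv2 : ρ u v = μ • v := Module.End.mem_eigenspace_iff.mp hvE
  set z := ρ a⁻¹ v with hz
  have haz : ρ a z = v := by
    rw [hz, ← Module.End.mul_apply, ← map_mul, mul_inv_cancel, map_one, Module.End.one_apply]
  have hbz : ρ b z = (l * μ) • z := by
    have hab : ρ (a * b * a⁻¹) v = (l * μ) • v := by
      have : a * b * a⁻¹ = u * b := by simp [hu, commutatorElement_def]
      rw [this, map_mul, Module.End.mul_apply, hv1, map_smul, hv2, smul_smul]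
    rw [map_mul, map_mul, Module.End.mul_apply, Module.End.mul_apply, ← hz] at hab
    have := congrArg (ρ a⁻¹) hab
    rwa [← Module.End.mul_apply, ← map_mul, inv_mul_cancel, map_one, Module.End.one_apply, map_smul,
      ← hz] at this
  have hΦv : ‖Φ ρ v‖ ≠ 0 := norm_ne_zero_iff.mpr (Φ_ne_zero ρ hv0)
  have hl1 : ‖l‖ = 1 := by
    have := norm_Φ ρ b v
    rw [hv1, map_smul, norm_smul] at this
    exact (mul_eq_right₀ hΦv).mp this
  have hl0 : l ≠ 0 := fun h => by simp [h] at hl1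
  have hnz : ‖Φ ρ z‖ = ‖Φ ρ v‖ := norm_Φ ρ _ v
  have horth : ⟪Φ ρ z, Φ ρ v⟫_ℂ = 0 := by
    have h := inner_Φ ρ b z v
    rw [hbz, hv1, map_smul, map_smul, inner_smul_left, inner_smul_right, ← mul_assoc] at h
    by_contra hip
    have h1 : conj (l * μ) * l = 1 := (mul_eq_right₀ hip).mp h
    have h2 : conj l * l = 1 := by
      rw [mul_comm, Complex.mul_conj, Complex.normSq_eq_norm_sq, hl1]; simp
    apply hμ1
    rw [map_mul, mul_assoc, mul_comm (conj μ), ← mul_assoc, h2, one_mul] at h1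
    simpa using congrArg conj h1
  have hle := ha z
  rw [haz, one_smul, hnz] at hle
  have hsq : ‖Φ ρ v - Φ ρ z‖ ^ 2 = ‖Φ ρ v‖ ^ 2 + ‖Φ ρ z‖ ^ 2 := by
    rw [norm_sub_sq (𝕜 := ℂ), ← inner_conj_symm, horth]
    simp
  rw [hnz] at hsq
  have hpos : 0 < ‖Φ ρ v‖ := lt_of_le_of_ne (norm_nonneg _) (Ne.symm hΦv)
  nlinarith [norm_nonneg (Φ ρ v - Φ ρ z), mul_lt_mul_of_pos_right hs hpos]

theorem small_commute (hinj : Function.Injective ρ) {a b : G} (ha : Small ρ a) (hb : Small ρ b) :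
    Commute a b := by
  classical
  obtain ⟨-, s, hs0, hs1, has⟩ := ha
  obtain ⟨⟨c, r, hr0, hr, hbr⟩, -⟩ := hb
  obtain ⟨f, hf0, hfs⟩ : ∃ f : ℕ → G, f 0 = a ∧ ∀ k, f (k + 1) = ⁅f k, b⁆ :=
    ⟨fun k => Nat.rec a (fun _ x => ⁅x, b⁆) k, rfl, fun _ => rfl⟩
  have hB : ∀ k, Bound ρ (f k) 1 ((2 * r) ^ k * s) := by
    intro k
    induction k with
    | zero => rw [hf0, pow_zero, one_mul]; exact has
    | succ k ih =>
      rw [hfs, pow_succ', mul_assoc]
      exact bound_commutator ρ hr0 (by positivity) hbr ih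
  have hev : ∀ g : G, g ≠ 1 → ∀ᶠ k in Filter.atTop, f k ≠ g := by
    intro g hg
    obtain ⟨v, hv⟩ : ∃ v, ρ g v ≠ v := by
      by_contra h
      push Not at h
      exact hg (hinj ((LinearMap.ext h).trans ρ.map_one.symm))
    have hpos : 0 < ‖Φ ρ (ρ g v) - (1 : ℂ) • Φ ρ v‖ := by
      rw [one_smul, norm_pos_iff, sub_ne_zero]
      exact fun h => hv (Φ_injective ρ h)
    have hlim : Filter.Tendsto (fun k => (2 * r) ^ k * s * ‖Φ ρ v‖) Filter.atTop (nhds 0) := by
      simpa using ((tendsto_pow_atTop_nhds_zero_of_lt_one (by linarith) (by linarith : 2 * r < 1)).mul_const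
        s).mul_const ‖Φ ρ v‖
    filter_upwards [hlim.eventually (gt_mem_nhds hpos)] with k hk hkg
    exact absurd ((hkg ▸ hB k) v) (not_le.mpr hk)
  have hone : ∀ᶠ k in Filter.atTop, f k = 1 := by
    filter_upwards [(Filter.eventually_all).mpr fun g : {g : G // g ≠ 1} => hev g g.2] with k hk
    by_contra h
    exact hk ⟨f k, h⟩ rfl
  have hex : ∃ k, Commute (f k) b := by
    obtain ⟨k, hk⟩ := hone.exists
    exact ⟨k, hk ▸ Commute.one_left b⟩
  have hfirst := Nat.find_spec hex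
  rcases Nat.eq_zero_or_pos (Nat.find hex) with h | h
  · rwa [h, hf0] at hfirst
  · obtain ⟨k, hk⟩ : ∃ k, Nat.find hex = k + 1 := ⟨Nat.find hex - 1, by omega⟩
    rw [hk, hfs] at hfirst
    have hbd : (2 * r) ^ k * s < 1 :=
      lt_of_le_of_lt (mul_le_of_le_one_left hs0 (pow_le_one₀ (by linarith) (by linarith))) hs1
    have h1 := eq_one_of_commute ρ hinj (by positivity) hbd (hB k) hfirst
    exact absurd (commutatorElement_eq_one_iff_commute.mp h1) (Nat.find_min hex (by omega))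

theorem exists_orth_eigen (H : Subgroup G) (hH : ∀ x ∈ H, ∀ y ∈ H, x * y = y * x) :
    ∀ k ≤ n, ∃ v : Fin k → (Fin n → ℂ), (∀ i, v i ≠ 0) ∧
      (∀ i j, i ≠ j → ⟪Φ ρ (v i), Φ ρ (v j)⟫_ℂ = 0) ∧ ∀ i, ∀ h ∈ H, ∃ l : ℂ, ρ h (v i) = l • v i := by
  intro k
  induction k with
  | zero => exact fun _ => ⟨fun i => i.elim0, fun i => i.elim0, fun i => i.elim0, fun i => i.elim0⟩
  | succ k ih =>
    intro hk
    obtain ⟨v, hv0, hvo, hve⟩ := ih (by omega)
    let T : (Fin n → ℂ) →ₗ[ℂ] (Fin k → ℂ) :=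
      LinearMap.pi fun i => ((innerSL ℂ (Φ ρ (v i))).toLinearMap).comp (Φ ρ)
    have hT : ∀ w, w ∈ LinearMap.ker T ↔ ∀ i, ⟪Φ ρ (v i), Φ ρ w⟫_ℂ = 0 := fun w => by
      simp [T, funext_iff]
    have hTne : LinearMap.ker T ≠ ⊥ := by
      apply LinearMap.ker_ne_bot_of_finrank_lt
      simp
      omega
    have hTinv : ∀ h ∈ H, ∀ w ∈ LinearMap.ker T, ρ h w ∈ LinearMap.ker T := by
      intro h hh w hw
      rw [hT] at hw ⊢
      intro i
      obtain ⟨l, hl⟩ := hve i h⁻¹ (H.inv_mem hh)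
      rw [← inner_Φ ρ h⁻¹, ← Module.End.mul_apply, ← map_mul, inv_mul_cancel, map_one,
        Module.End.one_apply, hl, map_smul, inner_smul_left, hw i, mul_zero]
    obtain ⟨W, ⟨hWne, hWle, hWinv⟩, hWmin⟩ := WellFounded.has_min
      (wellFounded_lt (α := Submodule ℂ (Fin n → ℂ)))
      {W | W ≠ ⊥ ∧ W ≤ LinearMap.ker T ∧ ∀ h ∈ H, ∀ w ∈ W, ρ h w ∈ W}
      ⟨_, hTne, le_rfl, hTinv⟩
    obtain ⟨w, hwW, hw0⟩ := Submodule.exists_mem_ne_zero_of_ne_bot hWne
    have hweig : ∀ h ∈ H, ∃ l : ℂ, ρ h w = l • w := by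
      intro h hh
      haveI : Nontrivial W := Submodule.nontrivial_iff_ne_bot.mpr hWne
      obtain ⟨l, hl⟩ := Module.End.exists_eigenvalue ((ρ h).restrict (hWinv h hh))
      obtain ⟨⟨x, hxW⟩, hx⟩ := hl.exists_hasEigenvector
      refine ⟨l, Module.End.mem_eigenspace_iff.mp ?_⟩
      have heq : W ⊓ Module.End.eigenspace (ρ h) l = W := by
        refine eq_of_le_of_not_lt inf_le_left (hWmin _ ⟨?_, inf_le_left.trans hWle, ?_⟩)
        · rw [Submodule.ne_bot_iff]
          exact ⟨x, ⟨hxW, Module.End.mem_eigenspace_iff.mpr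
            (congrArg Subtype.val (Module.End.mem_eigenspace_iff.mp hx.1))⟩, fun h => hx.2 (Subtype.ext h)⟩
        · rintro g hg y ⟨hy1, hy2⟩
          refine ⟨hWinv g hg y hy1, Module.End.mem_eigenspace_iff.mpr ?_⟩
          rw [← Module.End.mul_apply, ← map_mul, hH h hh g hg, map_mul, Module.End.mul_apply,
            Module.End.mem_eigenspace_iff.mp hy2, map_smul]
      exact (heq.ge hwW).2
    refine ⟨Fin.cons w v, ?_, ?_, ?_⟩
    · intro i; induction i using Fin.cases <;> simp [hw0, hv0]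
    · intro i j hij
      have h1 := (hT w).mp (hWle hwW)
      induction i using Fin.cases with
      | zero =>
        induction j using Fin.cases with
        | zero => exact absurd rfl hij
        | succ j =>
          simp only [Fin.cons_zero, Fin.cons_succ]
          rw [← inner_conj_symm, h1 j, map_zero]
      | succ i =>
        induction j using Fin.cases with
        | zero => simpa using h1 i
        | succ j => simpa using hvo i j (fun h => hij (congrArg Fin.succ h))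
    · intro i
      induction i using Fin.cases with
      | zero => simpa using hweig
      | succ i => simpa using hve i

theorem bound_of_eigen {v : Fin n → (Fin n → ℂ)} (hv0 : ∀ i, v i ≠ 0)
    (ho : ∀ i j, i ≠ j → ⟪Φ ρ (v i), Φ ρ (v j)⟫_ℂ = 0) {g : G} {l : Fin n → ℂ}
    (hl : ∀ i, ρ g (v i) = l i • v i) {c : ℂ} {r : ℝ} (hr0 : 0 ≤ r) (hr : ∀ i, ‖l i - c‖ ≤ r) :
    Bound ρ g c r := by
  classical
  intro x
  have hli : LinearIndependent ℂ v :=
    LinearIndependent.of_comp (Φ ρ) (linearIndependent_of_ne_zero_of_inner_eq_zero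
      (fun i => Φ_ne_zero ρ (hv0 i)) (fun i j hij => ho i j hij))
  have hspan : x ∈ Submodule.span ℂ (Set.range v) := by
    rw [hli.span_eq_top_of_card_eq_finrank' (by simp)]
    exact Submodule.mem_top
  obtain ⟨a, rfl⟩ := (Submodule.mem_span_range_iff_exists_fun ℂ).mp hspan
  have hsq : ∀ b : Fin n → ℂ, ‖∑ i, b i • Φ ρ (v i)‖ ^ 2 = ∑ i, ‖b i‖ ^ 2 * ‖Φ ρ (v i)‖ ^ 2 := by
    intro b
    rw [← inner_self_eq_norm_sq (𝕜 := ℂ), sum_inner]
    simp only [inner_sum, inner_smul_left, inner_smul_right]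
    rw [map_sum]
    refine Finset.sum_congr rfl fun i _ => ?_
    rw [Finset.sum_eq_single i (fun j _ hj => by rw [ho i j hj.symm]; simp) (by simp),
      inner_self_eq_norm_sq_to_K, ← mul_assoc]
    simp [← Complex.normSq_eq_norm_sq, Complex.mul_conj]
    left; norm_cast
  have h1 : Φ ρ (ρ g (∑ i, a i • v i)) - c • Φ ρ (∑ i, a i • v i) =
      ∑ i, (a i * (l i - c)) • Φ ρ (v i) := by
    simp only [map_sum, map_smul, hl, Finset.smul_sum, smul_smul, ← Finset.sum_sub_distrib, ← sub_smul]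
    exact Finset.sum_congr rfl fun i _ => by congr 1; ring
  rw [h1, map_sum]
  simp only [map_smul]
  refine (sq_le_sq₀ (norm_nonneg _) (mul_nonneg hr0 (norm_nonneg _))).mp ?_
  rw [mul_pow, hsq, hsq, Finset.mul_sum]
  refine Finset.sum_le_sum fun i _ => ?_
  rw [norm_mul, mul_pow]
  have hb : ‖l i - c‖ ^ 2 ≤ r ^ 2 := pow_le_pow_left₀ (norm_nonneg _) (hr i) 2
  calc ‖a i‖ ^ 2 * ‖l i - c‖ ^ 2 * ‖Φ ρ (v i)‖ ^ 2 ≤ ‖a i‖ ^ 2 * r ^ 2 * ‖Φ ρ (v i)‖ ^ 2 := by gcongr
    _ = r ^ 2 * (‖a i‖ ^ 2 * ‖Φ ρ (v i)‖ ^ 2) := by ring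

theorem frobenius_jordan (hinj : Function.Injective ρ) :
    ∃ A : Subgroup G, A.Normal ∧ (∀ x ∈ A, ∀ y ∈ A, x * y = y * x) ∧
      ∀ H : Subgroup G, (∀ x ∈ H, ∀ y ∈ H, x * y = y * x) → (A.subgroupOf H).index ≤ 12 ^ n := by
  classical
  refine ⟨Subgroup.closure {g | Small ρ g}, ⟨fun x hx g => ?_⟩, ?_, fun H hH => ?_⟩
  · have hle : (Subgroup.closure {g | Small ρ g}).map (MulAut.conj g).toMonoidHom ≤
        Subgroup.closure {g | Small ρ g} := by
      rw [MonoidHom.map_closure]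
      refine Subgroup.closure_mono ?_
      rintro _ ⟨y, hy, rfl⟩
      exact small_conj ρ hy g
    exact hle ⟨x, hx, rfl⟩
  · intro x hx y hy
    have h1 : Subgroup.closure {g | Small ρ g} ≤
        Subgroup.centralizer (Subgroup.closure {g | Small ρ g} : Set G) := by
      rw [Subgroup.centralizer_closure, Subgroup.closure_le]
      exact fun a ha => Subgroup.mem_centralizer_iff.mpr fun b hb => (small_commute ρ hinj hb ha).eq
    exact (Subgroup.mem_centralizer_iff.mp (h1 hx) y hy).symm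
  · set A := Subgroup.closure {g | Small ρ g}
    obtain ⟨v, hv0, hvo, hve⟩ := exists_orth_eigen ρ H hH n le_rfl
    choose l hl using hve
    have hnorm : ∀ (i : Fin n) (h : G) (hh : h ∈ H), ‖l i h hh‖ = 1 := by
      intro i h hh
      have := norm_Φ ρ h (v i)
      rw [hl i h hh, map_smul, norm_smul] at this
      exact (mul_eq_right₀ (norm_ne_zero_iff.mpr (Φ_ne_zero ρ (hv0 i)))).mp this
    let box : ℂ → ℤ := fun z => ⌈6 * Complex.arg z / Real.pi⌉
    have hbox : ∀ z, box z ∈ Finset.Icc (-5 : ℤ) 6 := by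
      intro z
      rw [Finset.mem_Icc]
      have hp := Real.pi_pos
      refine ⟨?_, ?_⟩
      · have : (-6 : ℤ) < box z := by
          apply Int.lt_ceil.mpr
          rw [lt_div_iff₀ hp]
          push_cast
          linarith [Complex.neg_pi_lt_arg z]
        omega
      · apply Int.ceil_le.mpr
        rw [div_le_iff₀ hp]
        push_cast
        linarith [Complex.arg_le_pi z]
    let B : H → (Fin n → Finset.Icc (-5 : ℤ) 6) := fun h i => ⟨box (l i h h.2), hbox _⟩
    have hkey : ∀ h h' : H, B h = B h' → ((h⁻¹ * h' : H) : G) ∈ A := by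
      intro h h' heq
      apply Subgroup.subset_closure
      let m : Fin n → ℂ := fun i => conj (l i h h.2) * l i h' h'.2
      have hm : ∀ i, ρ ((h⁻¹ * h' : H) : G) (v i) = m i • v i := by
        intro i
        have e : ρ ((h : G)⁻¹) (v i) = conj (l i h h.2) • v i := by
          have e1 : ρ (h : G)⁻¹ (ρ (h : G) (v i)) = v i := by
            rw [← Module.End.mul_apply, ← map_mul, inv_mul_cancel, map_one, Module.End.one_apply]
          rw [hl i h h.2, map_smul] at e1
          conv_rhs => rw [← e1]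
          rw [smul_smul, mul_comm, Complex.mul_conj, Complex.normSq_eq_norm_sq, hnorm]
          simp
        rw [Subgroup.coe_mul, Subgroup.coe_inv, map_mul, Module.End.mul_apply, hl i h' h'.2, map_smul, e,
          smul_smul, mul_comm]
      have hmn : ∀ i, ‖m i‖ = 1 := fun i => by simp [m, hnorm]
      have hre : ∀ i, Real.sqrt 3 / 2 < (m i).re := by
        intro i
        have hb := congrArg Subtype.val (congrFun heq i)
        set θ := Complex.arg (l i h h.2)
        set θ' := Complex.arg (l i h' h'.2)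
        have hd : |θ' - θ| < Real.pi / 6 := by
          have hb' : ⌈6 * θ / Real.pi⌉ = ⌈6 * θ' / Real.pi⌉ := hb
          have := Real.pi_pos
          have h1 := Int.le_ceil (6 * θ / Real.pi)
          have h2 := Int.ceil_lt_add_one (6 * θ / Real.pi)
          have h3 := Int.le_ceil (6 * θ' / Real.pi)
          have h4 := Int.ceil_lt_add_one (6 * θ' / Real.pi)
          rw [hb'] at h1 h2
          rw [abs_lt]
          constructor
          · have : 6 * θ / Real.pi < 6 * θ' / Real.pi + 1 := by linarith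
            rw [div_add_one (by linarith), div_lt_div_iff_of_pos_right (by linarith)] at this
            linarith
          · have : 6 * θ' / Real.pi < 6 * θ / Real.pi + 1 := by linarith
            rw [div_add_one (by linarith), div_lt_div_iff_of_pos_right (by linarith)] at this
            linarith
        have hm_re : (m i).re = Real.cos (θ' - θ) := by
          have e1 := Complex.norm_mul_cos_add_sin_mul_I (l i h h.2)
          have e2 := Complex.norm_mul_cos_add_sin_mul_I (l i h' h'.2)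
          rw [hnorm, Complex.ofReal_one, one_mul] at e1 e2
          show (conj (l i h h.2) * l i h' h'.2).re = _
          rw [← e1, ← e2]
          simp [Complex.mul_re, Complex.cos_ofReal_re, Complex.sin_ofReal_re, Complex.cos_ofReal_im,
            Complex.sin_ofReal_im, Real.cos_sub, θ, θ']
          ring
        rw [hm_re, ← Real.cos_pi_div_six, ← Real.cos_abs (θ' - θ)]
        exact Real.cos_lt_cos_of_nonneg_of_le_pi (abs_nonneg _) (by linarith [Real.pi_pos]) hd
      have h3 : Real.sqrt 3 ^ 2 = 3 := Real.sq_sqrt (by norm_num)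
      have h3pos : 1 < Real.sqrt 3 := by nlinarith [Real.sqrt_nonneg 3]
      have hsq : ∀ i (c : ℝ), ‖m i - (c : ℂ)‖ ^ 2 = 1 - 2 * c * (m i).re + c ^ 2 := by
        intro i c
        have h1 : Complex.normSq (m i) = 1 := by rw [Complex.normSq_eq_norm_sq, hmn]; simp
        rw [Complex.normSq_apply] at h1
        rw [← Complex.normSq_eq_norm_sq, Complex.normSq_apply]
        simp only [Complex.sub_re, Complex.sub_im, Complex.ofReal_re, Complex.ofReal_im]
        nlinarith
      have hlt1 : ∀ i, ‖m i - (Real.sqrt 3 / 2 : ℝ)‖ < 1 / 2 := by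
        intro i
        refine (sq_lt_sq₀ (norm_nonneg _) (by norm_num)).mp ?_
        rw [hsq]
        nlinarith [hre i]
      have hlt2 : ∀ i, ‖m i - ((1 : ℝ) : ℂ)‖ < 1 := by
        intro i
        refine (sq_lt_sq₀ (norm_nonneg _) (by norm_num)).mp ?_
        rw [hsq]
        nlinarith [hre i]
      have hmax : ∀ (c : ℝ) (b : ℝ), 0 < b → (∀ i, ‖m i - (c : ℂ)‖ < b) →
          ∃ r, 0 ≤ r ∧ r < b ∧ ∀ i, ‖m i - (c : ℂ)‖ ≤ r := by
        intro c b hb hlt
        rcases isEmpty_or_nonempty (Fin n) with he | hne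
        · exact ⟨0, le_rfl, hb, fun i => isEmptyElim i⟩
        · obtain ⟨i, -, hi⟩ := Finset.exists_max_image Finset.univ (fun i => ‖m i - (c : ℂ)‖)
            Finset.univ_nonempty
          exact ⟨_, norm_nonneg _, hlt i, fun j => hi j (Finset.mem_univ j)⟩
      obtain ⟨r, hr0, hr1, hr2⟩ := hmax _ _ (by norm_num) hlt1
      obtain ⟨s, hs0, hs1, hs2⟩ := hmax _ _ one_pos hlt2
      refine ⟨⟨_, r, hr0, hr1, bound_of_eigen ρ hv0 hvo hm hr0 hr2⟩, s, hs0, hs1, ?_⟩
      have := bound_of_eigen ρ hv0 hvo hm hs0 hs2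
      rwa [Complex.ofReal_one] at this
    calc (A.subgroupOf H).index ≤ Nat.card (Fin n → Finset.Icc (-5 : ℤ) 6) := by
          refine Nat.card_le_card_of_injective (fun q => B q.out) fun q q' hq => ?_
          rw [← QuotientGroup.out_eq' q, ← QuotientGroup.out_eq' q']
          exact QuotientGroup.eq.mpr (hkey _ _ hq)
      _ = 12 ^ n := by
          rw [Nat.card_fun, Nat.card_fin, Nat.card_eq_fintype_card, Fintype.card_coe]
          rfl

end CfsgLib.FrobJordan
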