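import Mathlib
import Cfsg.Agent.FrobJordan.Small
import Cfsg.Agent.CharBasics.Central
import Cfsg.Agent.BrauerInd.Galois
import Cfsg.Agent.Clifford.RepBasic

/-!
Blichfeldt's argument: for two primes exceeding `n + 1`, elements of these prime power orders in a linear
group of degree `n` either have a commuting non-central pair or all commute.
-/

namespace CfsgLib.FrobJordan

open scoped ComplexConjugate

variable {G : Type*} [Group G]

/-- Two lists of complex numbers with the same power sums have the same entries. -/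
theorem mem_of_power_sums {ι : Type*} [Fintype ι] (a b : ι → ℂ)
    (h : ∀ j : ℕ, ∑ i, a i ^ j = ∑ i, b i ^ j) (i : ι) : ∃ k, b k = a i := by
  classical
  have hP : ∀ P : Polynomial ℂ, ∑ i, P.eval (a i) = ∑ i, P.eval (b i) := by
    intro P
    simp only [Polynomial.eval_eq_sum_range]
    rw [Finset.sum_comm, Finset.sum_comm (γ := ι)]
    refine Finset.sum_congr rfl fun j _ => ?_
    rw [← Finset.mul_sum, ← Finset.mul_sum, h j]
  by_contra hne
  push Not at hne
  set T := ((Finset.univ.image a) ∪ (Finset.univ.image b)).erase (a i)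
  set P : Polynomial ℂ := ∏ t ∈ T, (Polynomial.X - Polynomial.C t) with hPdef
  have hev : ∀ x, P.eval x = ∏ t ∈ T, (x - t) := by simp [hPdef, Polynomial.eval_prod]
  have hb : ∀ k, P.eval (b k) = 0 := fun k => by
    rw [hev]
    exact Finset.prod_eq_zero (i := b k) (Finset.mem_erase.mpr
      ⟨hne k, Finset.mem_union_right _ (Finset.mem_image_of_mem _ (Finset.mem_univ _))⟩) (sub_self _)
  have hne0 : P.eval (a i) ≠ 0 := by
    rw [hev, Finset.prod_ne_zero_iff]
    exact fun t ht => sub_ne_zero.mpr (Finset.ne_of_mem_erase ht).symm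
  have hval : ∀ k, P.eval (a k) = if a k = a i then P.eval (a i) else 0 := fun k => by
    split
    · rename_i h; rw [h]
    · rename_i h
      rw [hev]
      exact Finset.prod_eq_zero (i := a k) (Finset.mem_erase.mpr
        ⟨h, Finset.mem_union_left _ (Finset.mem_image_of_mem _ (Finset.mem_univ _))⟩) (sub_self _)
  have := hP P
  rw [Finset.sum_congr rfl (fun k _ => hval k), Finset.sum_congr rfl (fun k _ => hb k), Finset.sum_const_zero,
    ← Finset.sum_filter, Finset.sum_const, nsmul_eq_mul] at this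
  rcases mul_eq_zero.mp this with h | h
  · rw [Nat.cast_eq_zero, Finset.card_eq_zero, Finset.filter_eq_empty_iff] at h
    exact h (Finset.mem_univ i) rfl
  · exact hne0 h

/-- The `q`-part exponent data. -/
theorem exists_part [Finite G] (q : ℕ) (hq : q.Prime) :
    ∃ v m E : ℕ, Nat.card G = q ^ v * m ∧ ¬ q ∣ m ∧ E ≡ 1 [MOD q ^ v] ∧ E ≡ 0 [MOD m] := by
  obtain ⟨v, m, hm, hc⟩ := Nat.exists_eq_pow_mul_and_not_dvd (Nat.card_pos (α := G)).ne' q hq.ne_one
  have hcop : (q ^ v).Coprime m := Nat.Coprime.pow_left _ ((hq.coprime_iff_not_dvd).mpr hm)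
  obtain ⟨E, hE⟩ := Nat.chineseRemainder hcop 1 0
  exact ⟨v, m, E, hc, hm, hE.1, hE.2⟩

theorem part_pow [Finite G] {q v m E : ℕ} (hN : Nat.card G = q ^ v * m) (hE : E ≡ 0 [MOD m]) (g : G) :
    (g ^ E) ^ q ^ v = 1 := by
  rw [← pow_mul, ← orderOf_dvd_iff_pow_eq_one]
  refine (orderOf_dvd_natCard g).trans ?_
  rw [hN, mul_comm E]
  exact Nat.mul_dvd_mul_left _ (Nat.modEq_zero_iff_dvd.mp hE)

/-- The twist of `σ` by a power prime to the order. -/
theorem twist_isIrr [Finite G] {d : ℕ} (σ : Representation ℂ G (Fin d → ℂ)) (hσ : σ.IsIrreducible) {k : ℕ}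
    (hk : k.Coprime (Nat.card G)) (ν : G →* ℂ) :
    Cfsg.IsIrrCharacter G (fun g => ν g * σ.character (g ^ k)) :=
  Clifford.isIrrCharacter_linear_mul (BrauerInd.isIrr_pow hk ⟨d, σ, hσ, rfl⟩) ν

theorem twist_data [Finite G] {d : ℕ} (σ : Representation ℂ G (Fin d → ℂ)) {q v m E : ℕ} (hq : q.Prime)
    (hd : d < q) (hd0 : 0 < d) (hN : Nat.card G = q ^ v * m) (hqm : ¬ q ∣ m)
    (hE1 : E ≡ 1 [MOD q ^ v]) :
    ∃ f : G →* ℂ, (∀ g, f g ^ Nat.card G = 1) ∧ (∀ g, f g = f (g ^ E)) ∧
      (∀ (z : G) (ω : ℂ), z ^ q ^ v = 1 → ω ^ q ^ v = 1 → σ z = ω • 1 → f z = ω) ∧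
      ∀ x : G, x ^ q ^ v = 1 → f x ^ q ^ v = 1 := by
  have hcop : (q ^ v).Coprime m := Nat.Coprime.pow_left _ ((hq.coprime_iff_not_dvd).mpr hqm)
  have hdq : d.Coprime (q ^ v) := Nat.Coprime.pow_right _
    ((hq.coprime_iff_not_dvd).mpr (fun h => absurd (Nat.le_of_dvd hd0 h) (by omega))).symm
  obtain ⟨e, he⟩ : ∃ e, d * e ≡ 1 [MOD q ^ v] := by
    rcases Nat.lt_or_ge 1 (q ^ v) with h | h
    · obtain ⟨e, he⟩ := Nat.exists_mul_mod_eq_one_of_coprime hdq h
      exact ⟨e, by rw [Nat.ModEq, he.2, Nat.mod_eq_of_lt h]⟩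
    · have : q ^ v = 1 := le_antisymm h (Nat.one_le_pow _ _ hq.pos)
      exact ⟨0, by rw [this]; exact Nat.modEq_one⟩
  obtain ⟨f, hf1, hf0⟩ := Nat.chineseRemainder hcop e 0
  let D : G →* ℂ := LinearMap.det.comp σ
  let F : G →* ℂ := (powMonoidHom f).comp D
  have hF : ∀ g, F g = D g ^ f := fun g => rfl
  refine ⟨F, fun g => ?_, fun g => ?_, fun z ω hz hω hσ => ?_, fun x hx => ?_⟩
  · rw [← map_pow, pow_card_eq_one', map_one]
  · have hm : f * E ≡ f [MOD Nat.card G] := by
      rw [hN]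
      refine (Nat.modEq_and_modEq_iff_modEq_mul hcop).mp ⟨?_, ?_⟩
      · simpa using hE1.mul_left f
      · exact ((hf0.mul_right E).trans (by rw [zero_mul])).trans hf0.symm
    rw [hF, hF, map_pow, ← pow_mul, mul_comm E]
    have h1 : D g ^ Nat.card G = 1 := by rw [← map_pow, pow_card_eq_one', map_one]
    exact (pow_eq_pow_of_modEq hm h1).symm
  · rw [hF]
    show LinearMap.det (σ z) ^ f = ω
    rw [hσ, LinearMap.det_smul, map_one, mul_one, Module.finrank_fin_fun, ← pow_mul]
    conv_rhs => rw [← pow_one ω]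
    exact pow_eq_pow_of_modEq ((hf1.mul_left d).trans he) hω
  · rw [← map_pow, hx, map_one]

/-- In an irreducible representation either all `p`-elements or all `q`-elements act as scalars. -/
theorem scalar_or [Finite G] {d : ℕ} (σ : Representation ℂ G (Fin d → ℂ)) (hσ : σ.IsIrreducible)
    {p q : ℕ} (hp : p.Prime) (hq : q.Prime) (hpq : p ≠ q) (hdp : d + 1 < p) (hdq : d + 1 < q)
    (hno : ∀ x y : G, (∃ k, x ^ p ^ k = 1) → (∃ k, y ^ q ^ k = 1) → Commute x y →
      x ∈ Subgroup.center G ∨ y ∈ Subgroup.center G) :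
    (∀ x : G, (∃ k, x ^ p ^ k = 1) → ∃ c : ℂ, σ x = c • 1) ∨
      (∀ y : G, (∃ k, y ^ q ^ k = 1) → ∃ c : ℂ, σ y = c • 1) := by
  classical
  haveI := Fintype.ofFinite G
  have hψ : Cfsg.IsIrrCharacter G σ.character := ⟨d, σ, hσ, rfl⟩
  have hd0 : 0 < d := by
    have := CharBasics.charDegree_pos hψ
    simpa [Cfsg.charDegree] using this
  have hscalar : ∀ z ∈ Subgroup.center G, ∃ ω : ℂ, σ z = ω • 1 := by
    intro z hz
    haveI := hσ
    obtain ⟨c, hc, -⟩ := CharBasics.commute_eq_scalar σ (σ z) fun g => by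
      rw [← Module.End.mul_eq_comp, ← Module.End.mul_eq_comp, ← map_mul, ← map_mul,
        Subgroup.mem_center_iff.mp hz g]
    exact ⟨c, hc⟩
  obtain ⟨vp, mp, Ep, hNp, hcp, hEp1, hEp0⟩ := exists_part (G := G) p hp
  obtain ⟨vq, mq, Eq, hNq, hcq, hEq1, hEq0⟩ := exists_part (G := G) q hq
  obtain ⟨fp, hfpN, hfpE, hfpz, hfpx⟩ := twist_data σ hp (by omega) hd0 hNp hcp hEp1
  obtain ⟨fq, hfqN, hfqE, hfqz, hfqx⟩ := twist_data σ hq (by omega) hd0 hNq hcq hEq1
  let ν : (G →* ℂ) → ℕ → (G →* ℂ) := fun f k => (powMonoidHom (Nat.card G * k + 1 - k)).comp f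
  have hν : ∀ f k g, ν f k g = f g ^ (Nat.card G * k + 1 - k) := fun f k g => rfl
  have hexp : ∀ k, Nat.card G * k + 1 - k + k = Nat.card G * k + 1 := fun k => by
    have : k ≤ Nat.card G * k := Nat.le_mul_of_pos_left _ Nat.card_pos
    omega
  -- agreement on elements with central part
  have hagree : ∀ {r v m E : ℕ} (f : G →* ℂ), Nat.card G = r ^ v * m → E ≡ 1 [MOD r ^ v] →
      E ≡ 0 [MOD m] → (∀ g, f g = f (g ^ E)) →
      (∀ (z : G) (ω : ℂ), z ^ r ^ v = 1 → ω ^ r ^ v = 1 → σ z = ω • 1 → f z = ω) →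
      ∀ k, (∀ g : G, (orderOf g).Coprime (r ^ v) → g ^ k = g) → ∀ g : G, g ^ E ∈ Subgroup.center G →
        σ.character g = ν f k g * σ.character (g ^ k) := by
    intro r v m E f hN h1 h0 hfE hfz k hk g hg
    obtain ⟨ω, hω⟩ := hscalar _ hg
    obtain ⟨E', hE'⟩ : ∃ E', E + E' ≡ 1 [MOD Nat.card G] := by
      refine ⟨Nat.card G * E + 1 - E, ?_⟩
      have hle : E ≤ Nat.card G * E := Nat.le_mul_of_pos_left _ Nat.card_pos
      rw [show E + (Nat.card G * E + 1 - E) = 1 + Nat.card G * E by omega]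
      exact Nat.ModEq.symm (by simp [Nat.ModEq])
    have hsplit : g = g ^ E * g ^ E' := by
      rw [← pow_add]
      conv_lhs => rw [← pow_one g]
      exact (pow_eq_pow_of_modEq hE' pow_card_eq_one').symm
    have hc : (orderOf (g ^ E')).Coprime (r ^ v) := by
      refine Nat.Coprime.coprime_dvd_left ?_ (Nat.coprime_comm.mp (show (r ^ v).Coprime m from ?_))
      · rw [orderOf_dvd_iff_pow_eq_one, ← pow_mul, ← orderOf_dvd_iff_pow_eq_one]
        refine (orderOf_dvd_natCard g).trans ?_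
        rw [hN]
        refine Nat.mul_dvd_mul_right ?_ m
        have h2 : E + E' ≡ 1 + 0 [MOD r ^ v] := by
          simpa using hE'.of_dvd (hN ▸ dvd_mul_right _ _)
        exact Nat.modEq_zero_iff_dvd.mp (Nat.ModEq.add_left_cancel h1 h2)
      · have : Nat.gcd (r ^ v) m ∣ 1 := by
          have hdE : Nat.gcd (r ^ v) m ∣ E := (Nat.gcd_dvd_right _ _).trans (Nat.modEq_zero_iff_dvd.mp h0)
          have := (h1.of_dvd (Nat.gcd_dvd_left (r ^ v) m)).symm.trans (Nat.modEq_zero_iff_dvd.mpr hdE)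
          exact Nat.modEq_zero_iff_dvd.mp this
        exact Nat.eq_one_of_dvd_one this
    have hωN : ω ^ r ^ v = 1 := by
      have h2 := congrArg σ (part_pow hN h0 g)
      rw [map_pow, hω, smul_pow, one_pow, map_one] at h2
      haveI : Nonempty (Fin d) := ⟨⟨0, hd0⟩⟩
      have h3 := congrFun (congrArg (fun L : Module.End ℂ (Fin d → ℂ) => L fun _ => 1) h2) ⟨0, hd0⟩
      simpa using h3
    have hf : f g = ω := by rw [hfE]; exact hfz _ _ (part_pow hN h0 g) hωN hω
    have hgk : σ (g ^ k) = ω ^ k • σ (g ^ E') := by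
      conv_lhs => rw [hsplit]
      rw [(Commute.pow_pow_self g E E').mul_pow, hk _ hc, map_mul, map_pow, hω, smul_pow, one_pow,
        smul_one_mul]
    have hg' : σ g = ω • σ (g ^ E') := by
      conv_lhs => rw [hsplit]
      rw [map_mul, hω, smul_one_mul]
    simp only [Representation.character, hν, hgk, hg', map_smul, smul_eq_mul, hf]
    rw [← mul_assoc, ← pow_add, hexp, pow_succ]
    have hωG : ω ^ Nat.card G = 1 := by rw [hN, pow_mul, hωN, one_pow]
    rw [pow_mul, hωG, one_pow, one_mul]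
  -- a fixed twist forces scalars
  have hfix : ∀ {r v m : ℕ} (f : G →* ℂ), r.Prime → d + 1 < r → Nat.card G = r ^ v * m →
      ¬ r ∣ m → (∀ g, f g ^ Nat.card G = 1) →
      (∀ x : G, x ^ r ^ v = 1 → f x ^ r ^ v = 1) →
      (∀ k, k.Coprime (Nat.card G) → (∀ g : G, (orderOf g).Coprime (r ^ v) → g ^ k = g) →
        (fun g => ν f k g * σ.character (g ^ k)) = σ.character) →
      ∀ x : G, (∃ j, x ^ r ^ j = 1) → ∃ c : ℂ, σ x = c • 1 := by
    intro r v m f hr hdr hN hrm hfN hfx hall x hx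
    have hcop : (r ^ v).Coprime m := Nat.Coprime.pow_left _ ((hr.coprime_iff_not_dvd).mpr hrm)
    have hxv : x ^ r ^ v = 1 := by
      obtain ⟨j, hj⟩ := hx
      obtain ⟨i, -, hi⟩ := (Nat.dvd_prime_pow hr).mp (orderOf_dvd_of_pow_eq_one hj)
      rw [← orderOf_dvd_iff_pow_eq_one]
      refine (Nat.Coprime.dvd_mul_right ?_).mp (hN ▸ orderOf_dvd_natCard x)
      rw [hi]
      exact Nat.Coprime.pow_left _ ((hr.coprime_iff_not_dvd).mpr hrm)
    obtain ⟨w, hw0, hwo, hwe⟩ := exists_orth_eigen σ (Subgroup.zpowers x)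
      (fun a ha b hb => by
        obtain ⟨i, rfl⟩ := ha
        obtain ⟨j, rfl⟩ := hb
        exact Commute.zpow_zpow_self x i j) d le_rfl
    have hli : LinearIndependent ℂ w :=
      LinearIndependent.of_comp (Φ σ) (linearIndependent_of_ne_zero_of_inner_eq_zero
        (fun i => Φ_ne_zero σ (hw0 i)) (fun i j hij => hwo i j hij))
    let B : Module.Basis (Fin d) ℂ (Fin d → ℂ) :=
      Module.Basis.mk hli (hli.span_eq_top_of_card_eq_finrank' (by simp)).ge
    have hB : ∀ i, B i = w i := fun i => Module.Basis.mk_apply _ _ i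
    choose l hl using fun i => hwe i x (Subgroup.mem_zpowers x)
    have hpow : ∀ (j : ℕ) i, σ (x ^ j) (w i) = l i ^ j • w i := by
      intro j i
      induction j with
      | zero => simp
      | succ j ih => rw [pow_succ x, map_mul, Module.End.mul_apply, hl, map_smul, ih, smul_smul, ← pow_succ']
    have htr : ∀ j : ℕ, σ.character (x ^ j) = ∑ i, l i ^ j := by
      intro j
      rw [Representation.character, LinearMap.trace_eq_matrix_trace ℂ B, Matrix.trace]
      refine Finset.sum_congr rfl fun i _ => ?_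
      rw [Matrix.diag_apply, LinearMap.toMatrix_apply, hB i, hpow, ← hB i, map_smul, B.repr_self]
      simp
    have hlv : ∀ i, l i ^ r ^ v = 1 := fun i => by
      have h := hpow (r ^ v) i
      rw [hxv, map_one, Module.End.one_apply] at h
      exact (smul_left_injective ℂ (hw0 i) (h.symm.trans (one_smul ℂ _).symm))
    set c := f x with hc
    have hc0 : c ≠ 0 := fun h => by
      have := hfN x
      rw [← hc, h, zero_pow Nat.card_pos.ne'] at this
      exact zero_ne_one this
    refine ⟨c, B.ext fun i => ?_⟩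
    rw [hB, hl, LinearMap.smul_apply, Module.End.one_apply]
    congr 1
    by_contra hli'
    set u := l i / c with hu
    have hu1 : u ≠ 1 := fun h => hli' ((div_eq_one_iff_eq hc0).mp h)
    have huv : u ^ r ^ v = 1 := by rw [hu, div_pow, hlv, hfx x hxv, div_one]
    have huo : r ≤ orderOf u := by
      obtain ⟨t, -, ht⟩ := (Nat.dvd_prime_pow hr).mp (orderOf_dvd_of_pow_eq_one huv)
      rw [ht]
      refine Nat.le_self_pow ?_ r
      rintro rfl
      exact hu1 (orderOf_eq_one_iff.mp (by simpa using ht))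
    -- every exponent below `r` keeps the eigenvalue set
    have hmem : ∀ k0 : Fin (r - 1), ∃ i', l i' = c * u ^ (k0.1 + 1) := by
      intro k0
      obtain ⟨k, hk, hk1, hk2⟩ := BrauerInd.exists_pow_part (G := G) (r ^ v) m (k0.1 + 1) hN hcop
        (Nat.Coprime.pow_right _ ((hr.coprime_iff_not_dvd).mpr
          (fun h => absurd (Nat.le_of_dvd (Nat.succ_pos _) h) (by omega))).symm)
      have hxk : x ^ k = x ^ (k0.1 + 1) := hk1 x (orderOf_dvd_of_pow_eq_one hxv)
      have heq := hall k hk hk2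
      set e := Nat.card G * k + 1 - k
      have hps : ∀ j : ℕ, ∑ i', l i' ^ j = ∑ i', (c ^ e * l i' ^ k) ^ j := by
        intro j
        have h := congrFun heq (x ^ j)
        rw [hν, map_pow, ← hc, ← pow_mul, ← pow_mul x, htr j, htr (j * k), Finset.mul_sum] at h
        rw [← h]
        refine Finset.sum_congr rfl fun i' _ => ?_
        rw [mul_pow, ← pow_mul, ← pow_mul, mul_comm j k, mul_comm j]
      obtain ⟨i', hi'⟩ := mem_of_power_sums _ _ (fun j => (hps j).symm) i
      refine ⟨i', hi'.trans ?_⟩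
      have hlk : l i ^ k = l i ^ (k0.1 + 1) := by
        have h := hpow k i
        rw [hxk, hpow] at h
        exact (smul_left_injective ℂ (hw0 i) h).symm
      have hck : c ^ k = c ^ (k0.1 + 1) := by rw [hc, ← map_pow, ← map_pow, hxk]
      have hce : c ^ e * c ^ (k0.1 + 1) = c := by
        rw [← hck, ← pow_add, hexp, pow_succ, pow_mul, hfN x, one_pow, one_mul]
      rw [hlk, hu, div_pow]
      field_simp
      linear_combination (l i ^ (k0.1 + 1)) * hce
    choose g hg using hmem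
    have hinj : Function.Injective g := by
      intro k1 k2 h
      have h12 : u ^ (k1.1 + 1) = u ^ (k2.1 + 1) := mul_left_cancel₀ hc0 ((hg k1).symm.trans (h ▸ hg k2))
      have h1' := k1.2
      have h2' := k2.2
      have := pow_injOn_Iio_orderOf (Set.mem_Iio.mpr (show k1.1 + 1 < orderOf u by omega))
        (Set.mem_Iio.mpr (show k2.1 + 1 < orderOf u by omega)) h12
      exact Fin.ext (by omega)
    have := Fintype.card_le_of_injective g hinj
    simp only [Fintype.card_fin] at this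
    omega
  by_cases hallp : ∀ k, k.Coprime (Nat.card G) → (∀ g : G, (orderOf g).Coprime (p ^ vp) → g ^ k = g) →
      (fun g => ν fp k g * σ.character (g ^ k)) = σ.character
  · exact Or.inl (hfix fp hp hdp hNp hcp hfpN hfpx hallp)
  · push Not at hallp
    obtain ⟨kp, hkp, hkp', hnep⟩ := hallp
    refine Or.inr (hfix fq hq hdq hNq hcq hfqN hfqx fun kq hkq hkq' => ?_)
    by_contra hneq
    have hi_p := twist_isIrr σ hσ hkp (ν fp kp)
    have hi_q := twist_isIrr σ hσ hkq (ν fq kq)
    have hi_pq := twist_isIrr σ hσ (Nat.Coprime.mul_left hkp hkq) (ν fp kp * ν fq kq)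
    have hcross : ∀ {r s v w E : ℕ}, r.Prime → s.Prime → r ≠ s → ∀ k, (∀ g : G, (orderOf g).Coprime (r ^ v) → g ^ k = g) →
        ∀ g : G, (g ^ E) ^ s ^ w = 1 → (g ^ k) ^ E = g ^ E := by
      intro r s v w E hr hs hrs k hk g hg
      rw [← pow_mul, mul_comm, pow_mul]
      exact hk _ (Nat.Coprime.coprime_dvd_left (orderOf_dvd_of_pow_eq_one hg)
        (Nat.Coprime.pow w v ((Nat.coprime_primes hs hr).mpr hrs.symm)))
    have hid : ∀ g, σ.character g + (ν fp kp * ν fq kq) g * σ.character (g ^ (kp * kq)) =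
        ν fp kp g * σ.character (g ^ kp) + ν fq kq g * σ.character (g ^ kq) := by
      intro g
      rcases hno (g ^ Ep) (g ^ Eq) ⟨vp, part_pow hNp hEp0 g⟩ ⟨vq, part_pow hNq hEq0 g⟩
        (Commute.pow_pow_self g Ep Eq) with hc | hc
      · have hq' : (g ^ kq) ^ Ep = g ^ Ep := hcross hq hp hpq.symm kq hkq' g (part_pow hNp hEp0 g)
        have h1 := hagree fp hNp hEp1 hEp0 hfpE hfpz kp hkp' g hc
        have h2 := hagree fp hNp hEp1 hEp0 hfpE hfpz kp hkp' (g ^ kq) (hq'.symm ▸ hc)
        have h3 : fp (g ^ kq) = fp g := by rw [hfpE (g ^ kq), hq', ← hfpE g]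
        rw [hν, h3, ← hν, ← pow_mul, mul_comm kq kp] at h2
        rw [← h1, MonoidHom.mul_apply, h2]
        ring
      · have hp' : (g ^ kp) ^ Eq = g ^ Eq := hcross hp hq hpq kp hkp' g (part_pow hNq hEq0 g)
        have h1 := hagree fq hNq hEq1 hEq0 hfqE hfqz kq hkq' g hc
        have h2 := hagree fq hNq hEq1 hEq0 hfqE hfqz kq hkq' (g ^ kp) (hp'.symm ▸ hc)
        have h3 : fq (g ^ kp) = fq g := by rw [hfqE (g ^ kp), hp', ← hfqE g]
        rw [hν, h3, ← hν, ← pow_mul] at h2
        rw [← h1, MonoidHom.mul_apply, h2]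
        ring
    have hinner := congrArg (fun F => Cfsg.classInner F σ.character) (funext hid :
      (σ.character + fun g => (ν fp kp * ν fq kq) g * σ.character (g ^ (kp * kq))) =
        (fun g => ν fp kp g * σ.character (g ^ kp)) + fun g => ν fq kq g * σ.character (g ^ kq))
    simp only [CharBasics.classInner_add_left] at hinner
    rw [CharBasics.classInner_self hψ, CharBasics.classInner_ne hi_p hψ hnep,
      CharBasics.classInner_ne hi_q hψ hneq] at hinner
    obtain ⟨t, ht⟩ := CharBasics.classInner_character_nat (CharBasics.isCharacter_of_irr hi_pq) ⟨_, hψ⟩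
    rw [show Cfsg.classInner _ σ.character = (t : ℂ) from ht] at hinner
    norm_cast at hinner
    omega

end CfsgLib.FrobJordan
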