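import Mathlib
import Cfsg.Agent.FrobJordan.Twist
import Cfsg.Agent.PGroup.Basic

/-!
The explicit bound on the index of an abelian normal subgroup of a finite linear group.
-/

namespace CfsgLib.FrobJordan

open scoped Pointwise commutatorElement

variable {G : Type*} [Group G] [Finite G]

/-- The order of a Sylow `q`-subgroup. -/
noncomputable def qpart (K : Subgroup G) (q : ℕ) : ℕ := q ^ (Nat.card K).factorization q

theorem exists_full (K : Subgroup G) {q : ℕ} (hq : q.Prime) :
    ∃ P : Subgroup G, P ≤ K ∧ Nat.card P = qpart K q := by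
  haveI := Fact.mk hq
  obtain ⟨P, hP⟩ := Sylow.exists_subgroup_card_pow_prime (G := K) q (Nat.ordProj_dvd (Nat.card K) q)
  exact ⟨P.map K.subtype, Subgroup.map_subtype_le _, by rw [Subgroup.card_subtype, hP]; rfl⟩

theorem exists_full_mem (K : Subgroup G) {q : ℕ} (hq : q.Prime) {x : G} (hx : x ∈ K)
    (hxq : ∃ j, x ^ q ^ j = 1) : ∃ P : Subgroup G, P ≤ K ∧ Nat.card P = qpart K q ∧ x ∈ P := by
  haveI := Fact.mk hq
  obtain ⟨j, hj⟩ := hxq
  obtain ⟨i, -, hi⟩ := (Nat.dvd_prime_pow hq).mp (orderOf_dvd_of_pow_eq_one hj)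
  have hx' : IsPGroup q (Subgroup.zpowers (⟨x, hx⟩ : K)) :=
    IsPGroup.of_card (n := i) (by rw [Nat.card_zpowers, Subgroup.orderOf_mk, hi])
  obtain ⟨S, hS⟩ := hx'.exists_le_sylow
  refine ⟨(S : Subgroup K).map K.subtype, Subgroup.map_subtype_le _, ?_, ⟨x, hx⟩, hS (Subgroup.mem_zpowers _), rfl⟩
  rw [Subgroup.card_subtype, S.card_eq_multiplicity]
  rfl

theorem full_conj {K P Q : Subgroup G} {q : ℕ} (hq : q.Prime) (hP : P ≤ K) (hPc : Nat.card P = qpart K q)
    (hQ : Q ≤ K) (hQc : Nat.card Q = qpart K q) :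
    ∃ g ∈ K, ∀ x, x ∈ Q ↔ g⁻¹ * x * g ∈ P := by
  haveI := Fact.mk hq
  let P' : Sylow q K := Sylow.ofCard (P.subgroupOf K)
    (by rw [Nat.card_congr (Subgroup.subgroupOfEquivOfLe hP).toEquiv, hPc]; rfl)
  let Q' : Sylow q K := Sylow.ofCard (Q.subgroupOf K)
    (by rw [Nat.card_congr (Subgroup.subgroupOfEquivOfLe hQ).toEquiv, hQc]; rfl)
  obtain ⟨g, hg⟩ := MulAction.exists_smul_eq K P' Q'
  have hmem : ∀ y : K, y ∈ Q.subgroupOf K ↔ g⁻¹ * y * g ∈ P.subgroupOf K := by
    intro y
    have h : (Q' : Subgroup K) = MulAut.conj g • (P' : Subgroup K) := by rw [← hg]; rfl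
    show y ∈ (Q' : Subgroup K) ↔ _
    rw [h, Subgroup.mem_pointwise_smul_iff_inv_smul_mem, ← map_inv, MulAut.smul_def, MulAut.conj_apply,
      inv_inv]
    rfl
  refine ⟨g, g.2, fun x => ⟨fun hx => (hmem ⟨x, hQ hx⟩).mp hx, fun hx => ?_⟩⟩
  have hxK : x ∈ K := by
    have := K.mul_mem (K.mul_mem g.2 (hP hx)) (K.inv_mem g.2)
    simpa [mul_assoc] using this
  exact (hmem ⟨x, hxK⟩).mpr hx

theorem factorization_le_of_pow_dvd {a b q e : ℕ} (hq : q.Prime) (hb : b ≠ 0) (h : q ^ e ∣ b) (hab : a ≤ e) :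
    a ≤ b.factorization q :=
  hab.trans ((hq.pow_dvd_iff_le_factorization hb).mp h)

variable {χ : G → ℂ} {n : ℕ}

/-- Subgroups whose order has only prime divisors above the degree are abelian. -/
theorem pi_comm (hχ : Cfsg.IsCharacter G χ) (hfaith : ∀ g, χ g = χ 1 → g = 1)
    (hn : Cfsg.charDegree χ = n) (H : Subgroup G) (hH : ∀ q, q.Prime → q ∣ Nat.card H → n < q)
    {x y : G} (hx : x ∈ H) (hy : y ∈ H) : x * y = y * x := by
  obtain ⟨r, ψ, hψ, hs⟩ := CharBasics.exists_decomp (CharBasics.isCharacter_restrict hχ H)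
  have hdeg : ∑ i, Cfsg.charDegree (ψ i) = n := by
    have h := congrFun hs 1
    rw [Finset.sum_apply, Finset.sum_congr rfl (fun i _ => CharBasics.apply_one
      (CharBasics.isCharacter_of_irr (hψ i)))] at h
    have h' : χ 1 = ∑ i, (Cfsg.charDegree (ψ i) : ℂ) := by simpa using h
    rw [CharBasics.apply_one hχ, hn, ← Nat.cast_sum] at h'
    exact_mod_cast h'.symm
  have h1 : ∀ i, ψ i 1 = 1 := by
    intro i
    rw [CharBasics.apply_one (CharBasics.isCharacter_of_irr (hψ i))]
    suffices Cfsg.charDegree (ψ i) = 1 by rw [this]; simp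
    by_contra hne
    obtain ⟨q, hq, hqd⟩ := Nat.exists_prime_and_dvd hne
    have hqH := hH q hq (hqd.trans (CharBasics.degree_dvd ⟨ψ i, hψ i⟩))
    have hle : Cfsg.charDegree (ψ i) ≤ n := hdeg ▸ Finset.single_le_sum (f := fun j => Cfsg.charDegree (ψ j)) (fun j _ => Nat.zero_le _) (Finset.mem_univ i)
    have := Nat.le_of_dvd (CharBasics.charDegree_pos (hψ i)) hqd
    omega
  have key : χ (x * y * x⁻¹ * y⁻¹) = χ 1 := by
    have e1 := congrFun hs (⟨x, hx⟩ * ⟨y, hy⟩ * ⟨x, hx⟩⁻¹ * ⟨y, hy⟩⁻¹)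
    have e2 := congrFun hs 1
    simp only [Finset.sum_apply] at e1 e2
    refine Eq.trans e1 (Eq.trans ?_ e2.symm)
    refine Finset.sum_congr rfl fun i _ => ?_
    have hm := IndFun.linChar_mul (CharBasics.isCharacter_of_irr (hψ i)) (h1 i)
    have hinv : ∀ a, ψ i a * ψ i a⁻¹ = 1 := fun a => by rw [← hm, mul_inv_cancel, h1]
    rw [hm, hm, hm, h1]
    linear_combination (ψ i ⟨y, hy⟩ * ψ i ⟨y, hy⟩⁻¹) * hinv ⟨x, hx⟩ + hinv ⟨y, hy⟩
  have h := hfaith _ key
  calc x * y = (x * y * x⁻¹ * y⁻¹) * (y * x) := by group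
    _ = y * x := by rw [h, one_mul]

/-- Blichfeldt: a non-central pair or total commutation. -/
theorem pair_or_commute (hχ : Cfsg.IsCharacter G χ) (hfaith : ∀ g, χ g = χ 1 → g = 1)
    (hn : Cfsg.charDegree χ = n) {p q : ℕ} (hp : p.Prime) (hq : q.Prime) (hpq : p ≠ q) (hp' : n + 1 < p)
    (hq' : n + 1 < q)
    (hno : ∀ x y : G, (∃ k, x ^ p ^ k = 1) → (∃ k, y ^ q ^ k = 1) → Commute x y →
      x ∈ Subgroup.center G ∨ y ∈ Subgroup.center G)
    {x y : G} (hx : ∃ k, x ^ p ^ k = 1) (hy : ∃ k, y ^ q ^ k = 1) : Commute x y := by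
  obtain ⟨r, ψ, hψ, rfl⟩ := CharBasics.exists_decomp hχ
  have hdeg : ∑ i, Cfsg.charDegree (ψ i) = n := by
    have h := CharBasics.apply_one hχ
    rw [hn, Finset.sum_apply, Finset.sum_congr rfl (fun i _ => CharBasics.apply_one
      (CharBasics.isCharacter_of_irr (hψ i))), ← Nat.cast_sum] at h
    exact_mod_cast h
  refine commutatorElement_eq_one_iff_commute.mp (hfaith _ ?_)
  simp only [Finset.sum_apply]
  refine Finset.sum_congr rfl fun i _ => ?_
  obtain ⟨d, σ, hσ, hd⟩ := hψ i
  have hdn : d ≤ n := by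
    have : Cfsg.charDegree (ψ i) = d := by rw [← hd]; simp [Cfsg.charDegree]
    rw [← this, ← hdeg]
    exact Finset.single_le_sum (f := fun j => Cfsg.charDegree (ψ j)) (fun j _ => Nat.zero_le _) (Finset.mem_univ i)
  have hc : σ x * σ y = σ y * σ x := by
    rcases scalar_or σ hσ hp hq hpq (by omega) (by omega) hno with h | h
    · obtain ⟨c, hc⟩ := h x hx
      rw [hc, smul_one_mul, mul_smul_one]
    · obtain ⟨c, hc⟩ := h y hy
      rw [hc, smul_one_mul, mul_smul_one]
  rw [← hd]
  simp only [Representation.character]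
  congr 1
  calc σ ⁅x, y⁆ = σ x * σ y * σ x⁻¹ * σ y⁻¹ := by rw [commutatorElement_def, map_mul, map_mul, map_mul]
    _ = σ y * (σ x * σ x⁻¹) * σ y⁻¹ := by rw [hc]; simp only [mul_assoc]
    _ = σ 1 := by rw [← map_mul, mul_inv_cancel, map_one, mul_one, ← map_mul, mul_inv_cancel, map_one]

/-- Blichfeldt: a subgroup of full order for the primes above `n + 1`. -/
theorem exists_hall (hχ : Cfsg.IsCharacter G χ) (hfaith : ∀ g, χ g = χ 1 → g = 1)
    (hn : Cfsg.charDegree χ = n) (K : Subgroup G) :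
    ∃ H : Subgroup G, H ≤ K ∧ (∀ q, q.Prime → q ∣ Nat.card H → n + 1 < q) ∧
      ∀ q, q.Prime → n + 1 < q → qpart K q ∣ Nat.card H := by
  suffices ∀ (N : ℕ) (K : Subgroup G), Nat.card K ≤ N → ∃ H : Subgroup G, H ≤ K ∧
      (∀ q, q.Prime → q ∣ Nat.card H → n + 1 < q) ∧ ∀ q, q.Prime → n + 1 < q → qpart K q ∣ Nat.card H from
    this _ K le_rfl
  intro N
  induction N with
  | zero => intro K hK; exact absurd hK (by have := Nat.card_pos (α := K); omega)
  | succ N ih =>
    intro K hK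
    have hcomm : ∀ H : Subgroup G, (∀ q, q.Prime → q ∣ Nat.card H → n + 1 < q) →
        ∀ x ∈ H, ∀ y ∈ H, x * y = y * x := fun H hH x hx y hy =>
      pi_comm hχ hfaith hn H (fun q hq hd => by have := hH q hq hd; omega) hx hy
    have hfullcomm : ∀ q, q.Prime → n + 1 < q → ∀ P : Subgroup G, Nat.card P = qpart K q →
        ∀ x ∈ P, ∀ y ∈ P, x * y = y * x := fun q hq hqn P hP => hcomm P fun r hr hd => by
      rw [hP] at hd
      rwa [(Nat.prime_dvd_prime_iff_eq hr hq).mp (hr.dvd_of_dvd_pow hd)]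
    have hpart : ∀ (q : ℕ) (C P : Subgroup G), q.Prime → C ≤ K → P ≤ C → Nat.card P = qpart K q →
        qpart K q ∣ qpart C q := by
      intro q C P hq hCK hPC hP
      apply Nat.pow_dvd_pow
      exact (hq.pow_dvd_iff_le_factorization Nat.card_pos.ne').mp ((hP ▸ Subgroup.card_dvd_of_le hPC :))
    have hqelt : ∀ (q : ℕ) (P : Subgroup G), q.Prime → Nat.card P = qpart K q → ∀ x ∈ P, ∃ j, x ^ q ^ j = 1 :=
      fun q P hq hP x hx => ⟨(Nat.card K).factorization q, by
        rw [← orderOf_dvd_iff_pow_eq_one]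
        exact (P.orderOf_dvd_natCard hx).trans (dvd_of_eq hP)⟩
    set Z := Subgroup.centralizer (K : Set G)
    by_cases hall : ∀ q, q.Prime → n + 1 < q → ∀ x ∈ K, (∃ j, x ^ q ^ j = 1) → x ∈ Z
    · let H : Subgroup G :=
        { carrier := {g | g ∈ K ∧ g ∈ Z ∧ ∀ r, r.Prime → r ∣ orderOf g → n + 1 < r}
          one_mem' := ⟨K.one_mem, Z.one_mem, fun r hr hd => absurd (orderOf_one (G := G) ▸ hd) hr.not_dvd_one⟩
          inv_mem' := fun {a} ha => ⟨K.inv_mem ha.1, Z.inv_mem ha.2.1, by rw [orderOf_inv]; exact ha.2.2⟩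
          mul_mem' := fun {a b} ha hb => ⟨K.mul_mem ha.1 hb.1, Z.mul_mem ha.2.1 hb.2.1, fun r hr hd => by
            have hc : Commute a b := Subgroup.mem_centralizer_iff.mp hb.2.1 a ha.1
            rcases hr.dvd_mul.mp (hd.trans (hc.orderOf_mul_dvd_mul_orderOf)) with h | h
            · exact ha.2.2 r hr h
            · exact hb.2.2 r hr h⟩ }
      refine ⟨H, fun g hg => hg.1, fun r hr hd => ?_, fun q hq hqn => ?_⟩
      · haveI := Fact.mk hr
        obtain ⟨g, hg⟩ := exists_prime_orderOf_dvd_card' (G := H) r hd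
        exact g.2.2.2 r hr (by rw [Subgroup.orderOf_coe, hg])
      · obtain ⟨P, hPK, hPc⟩ := exists_full K hq
        rw [← hPc]
        refine Subgroup.card_dvd_of_le fun g hg => ⟨hPK hg, hall q hq hqn g (hPK hg) (hqelt q P hq hPc g hg), ?_⟩
        intro r hr hd
        have h := hd.trans ((P.orderOf_dvd_natCard hg).trans (dvd_of_eq hPc))
        rwa [(Nat.prime_dvd_prime_iff_eq hr hq).mp (hr.dvd_of_dvd_pow h)]
    · push Not at hall
      obtain ⟨p, hp, hpn, x, hxK, hxp, hxZ⟩ := hall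
      have hsub : ∀ z, z ∈ K → z ∉ Z → ∀ C : Subgroup G, C = K ⊓ Subgroup.centralizer {z} →
          ∃ H : Subgroup G, H ≤ C ∧ (∀ q, q.Prime → q ∣ Nat.card H → n + 1 < q) ∧
            ∀ q, q.Prime → n + 1 < q → qpart C q ∣ Nat.card H := by
        intro z hz hzZ C hC
        apply ih
        have hlt : C < K := by
          refine lt_of_le_of_ne (hC ▸ inf_le_left) fun heq => hzZ ?_
          refine Subgroup.mem_centralizer_iff.mpr fun w hw => ?_
          have : w ∈ C := heq.symm ▸ hw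
          rw [hC] at this
          exact Subgroup.mem_centralizer_singleton_iff.mp this.2
        have := Set.ncard_lt_ncard (SetLike.coe_ssubset_coe.mpr hlt) (Set.toFinite _)
        rw [← Nat.card_coe_set_eq, ← Nat.card_coe_set_eq] at this
        have : Nat.card C < Nat.card K := this
        omega
      obtain ⟨H, hHC, hH1, hH2⟩ := hsub x hxK hxZ _ rfl
      refine ⟨H, hHC.trans inf_le_left, hH1, fun q hq hqn => ?_⟩
      obtain ⟨P, hPK, hPc, hxP⟩ := exists_full_mem K hp hxK hxp
      have hPcomm := hfullcomm p hp hpn P hPc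
      set C := K ⊓ Subgroup.centralizer ({x} : Set G)
      suffices ∃ Q : Subgroup G, Q ≤ C ∧ Nat.card Q = qpart K q by
        obtain ⟨Q, hQ, hQc⟩ := this
        exact (hpart q C Q hq inf_le_left hQ hQc).trans (hH2 q hq hqn)
      by_cases hpq : q = p
      · exact hpq ▸ ⟨P, fun g hg => ⟨hPK hg, Subgroup.mem_centralizer_singleton_iff.mpr (hPcomm g hg x hxP)⟩, hPc⟩
      by_cases hpair : ∃ a ∈ K, ∃ b ∈ K, (∃ k, a ^ p ^ k = 1) ∧ (∃ k, b ^ q ^ k = 1) ∧ a * b = b * a ∧ a ∉ Z ∧ b ∉ Z
      · obtain ⟨a, haK, b, hbK, hap, hbq, hab, haZ, hbZ⟩ := hpair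
        obtain ⟨H1, hH1C, hH11, hH12⟩ := hsub a haK haZ _ rfl
        set C' := K ⊓ Subgroup.centralizer ({a} : Set G)
        obtain ⟨Pa, hPaK, hPac, haPa⟩ := exists_full_mem K hp haK hap
        have hPaC : Pa ≤ C' := fun g hg =>
          ⟨hPaK hg, Subgroup.mem_centralizer_singleton_iff.mpr (hfullcomm p hp hpn Pa hPac g hg a haPa)⟩
        haveI := Fact.mk hp
        haveI := Fact.mk hq
        obtain ⟨P1, hP1⟩ := Sylow.exists_subgroup_card_pow_prime (G := H1) p
          ((hpart p C' Pa hp inf_le_left hPaC hPac).trans (hH12 p hp hpn))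
        obtain ⟨T, hT⟩ := Sylow.exists_subgroup_card_pow_prime (G := H1) q (hH12 q hq hqn)
        have hT' : Nat.card (T.map H1.subtype) = qpart C' q := by rw [Subgroup.card_subtype, hT]; rfl
        have hbC' : b ∈ C' := ⟨hbK, Subgroup.mem_centralizer_singleton_iff.mpr hab.symm⟩
        obtain ⟨Tb, hTbC, hTbc, hbTb⟩ := exists_full_mem C' hq hbC' hbq
        obtain ⟨g, hgC, hg⟩ := full_conj hq hTbC hTbc ((Subgroup.map_subtype_le T).trans hH1C) hT'
        set y := g * b * g⁻¹ with hy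
        have hyT : y ∈ T.map H1.subtype := (hg y).mpr (by simpa [hy, mul_assoc] using hbTb)
        have hyH1 : y ∈ H1 := Subgroup.map_subtype_le T hyT
        have hyK : y ∈ K := (hH1C hyH1).1
        have hyZ : y ∉ Z := fun h => hbZ (by
          have h' : g * y = y * g := Subgroup.mem_centralizer_iff.mp h g hgC.1
          have : b = y := by
            calc b = g⁻¹ * (y * g) := by simp [hy, mul_assoc]
              _ = y := by rw [← h', inv_mul_cancel_left]
          rw [this]; exact h)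
        obtain ⟨H2, hH2C, hH21, hH22⟩ := hsub y hyK hyZ _ rfl
        set C'' := K ⊓ Subgroup.centralizer ({y} : Set G)
        have hP1c : Nat.card (P1.map H1.subtype) = qpart K p := by rw [Subgroup.card_subtype, hP1]; rfl
        have hP1C : P1.map H1.subtype ≤ C'' := fun z hz =>
          ⟨(hH1C (Subgroup.map_subtype_le P1 hz)).1, Subgroup.mem_centralizer_singleton_iff.mpr
            (hcomm H1 hH11 z (Subgroup.map_subtype_le P1 hz) y hyH1)⟩
        obtain ⟨Qy, hQyK, hQyc, hyQ⟩ := exists_full_mem K hq hyK (by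
          obtain ⟨k, hk⟩ := hbq
          exact ⟨k, by rw [hy, conj_pow, hk, mul_one, mul_inv_cancel]⟩)
        have hQyC : Qy ≤ C'' := fun z hz =>
          ⟨hQyK hz, Subgroup.mem_centralizer_singleton_iff.mpr (hfullcomm q hq hqn Qy hQyc z hz y hyQ)⟩
        obtain ⟨P2, hP2⟩ := Sylow.exists_subgroup_card_pow_prime (G := H2) p
          ((hpart p C'' _ hp inf_le_left hP1C hP1c).trans (hH22 p hp hpn))
        obtain ⟨Q2, hQ2⟩ := Sylow.exists_subgroup_card_pow_prime (G := H2) q
          ((hpart q C'' Qy hq inf_le_left hQyC hQyc).trans (hH22 q hq hqn))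
        have hP2c : Nat.card (P2.map H2.subtype) = qpart K p := by rw [Subgroup.card_subtype, hP2]; rfl
        obtain ⟨h, hhK, hh⟩ := full_conj hp
          ((Subgroup.map_subtype_le P2).trans (hH2C.trans inf_le_left)) hP2c hPK hPc
        refine ⟨(Q2.map H2.subtype).map (MulAut.conj h).toMonoidHom, ?_, ?_⟩
        · rintro _ ⟨z, hz, rfl⟩
          have hzH : z ∈ H2 := Subgroup.map_subtype_le Q2 hz
          refine ⟨K.mul_mem (K.mul_mem hhK (hH2C hzH).1) (K.inv_mem hhK), Subgroup.mem_centralizer_singleton_iff.mpr ?_⟩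
          have hc := hcomm H2 hH21 z hzH _ (Subgroup.map_subtype_le P2 ((hh x).mp hxP))
          calc h * z * h⁻¹ * x = h * (z * (h⁻¹ * x * h)) * h⁻¹ := by group
            _ = h * ((h⁻¹ * x * h) * z) * h⁻¹ := by rw [hc]
            _ = x * (h * z * h⁻¹) := by group
        · rw [Subgroup.card_map_of_injective (MulAut.conj h).injective, Subgroup.card_subtype, hQ2]; rfl
      · obtain ⟨Q, hQK, hQc⟩ := exists_full K hq
        refine ⟨Q, fun g hg => ⟨hQK hg, Subgroup.mem_centralizer_singleton_iff.mpr ?_⟩, hQc⟩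
        push Not at hpair
        have hχK := CharBasics.isCharacter_restrict hχ K
        have hnK : Cfsg.charDegree (fun g : K => χ g) = n := by rw [← hn]; rfl
        have := pair_or_commute (G := K) (χ := fun g : K => χ g) (n := n) hχK
          (fun g h => Subtype.ext (hfaith g h)) hnK hp hq (Ne.symm hpq) hpn hqn
          (fun a b ha hb hab => by
            have hpow : ∀ (c : K) (r k : ℕ), c ^ r ^ k = 1 → (c : G) ^ r ^ k = 1 := fun c r k h => by
              rw [← Subgroup.coe_pow, h, Subgroup.coe_one]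
            obtain ⟨k1, hk1⟩ := ha
            obtain ⟨k2, hk2⟩ := hb
            have hZc : ∀ c : K, (c : G) ∈ Z → c ∈ Subgroup.center K := fun c hc =>
              Subgroup.mem_center_iff.mpr fun w => Subtype.ext (Subgroup.mem_centralizer_iff.mp hc w w.2)
            by_cases haZ : (a : G) ∈ Z
            · exact Or.inl (hZc a haZ)
            · exact Or.inr (hZc b (hpair a a.2 b b.2 ⟨k1, hpow a p k1 hk1⟩ ⟨k2, hpow b q k2 hk2⟩
                (congrArg Subtype.val hab.eq) haZ)))
          (x := ⟨x, hxK⟩) (y := ⟨g, hQK hg⟩)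
          (by obtain ⟨k, hk⟩ := hxp; exact ⟨k, Subtype.ext hk⟩)
          (by obtain ⟨k, hk⟩ := hqelt q Q hq hQc g hg; exact ⟨k, Subtype.ext hk⟩)
        exact (congrArg Subtype.val this.eq).symm

/-- A `p`-group of matrices of degree `n` has an abelian subgroup of index dividing `n!`. -/
theorem exists_abelian_index_dvd [Fintype G] (ρ : Representation ℂ G (Fin n → ℂ)) (hinj : Function.Injective ρ)
    {p : ℕ} [Fact p.Prime] (P : Subgroup G) (hP : IsPGroup p P) :
    ∃ B : Subgroup G, B ≤ P ∧ (∀ x ∈ B, ∀ y ∈ B, x * y = y * x) ∧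
      ∃ e, Nat.card P = Nat.card B * e ∧ e ∣ n.factorial := by
  classical
  obtain ⟨B, ⟨hBn, hBab⟩, hBmax⟩ := WellFounded.has_min (wellFounded_gt (α := Subgroup P))
    {B : Subgroup P | B.Normal ∧ IsMulCommutative B} ⟨⊥, inferInstance, inferInstance⟩
  haveI := hBn
  have hC := CfsgLib.PGroup.centralizer_maximal_normal_abelian hP hBab
    (fun B' hn' hab' hle => by
      by_contra hne
      exact hBmax B' ⟨hn', hab'⟩ (lt_of_le_of_ne hle (Ne.symm hne)))
  set B0 := B.map P.subtype
  have hB0c : ∀ x ∈ B0, ∀ y ∈ B0, x * y = y * x := by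
    rintro _ ⟨x, hx, rfl⟩ _ ⟨y, hy, rfl⟩
    exact congrArg (fun z : B => ((z : P) : G)) (hBab.is_comm.comm ⟨x, hx⟩ ⟨y, hy⟩)
  refine ⟨B0, Subgroup.map_subtype_le _, hB0c, B.index, ?_, ?_⟩
  · rw [Subgroup.card_subtype, Subgroup.card_mul_index]
  obtain ⟨w, hw0, hwo, hwe⟩ := exists_orth_eigen ρ B0 hB0c n le_rfl
  have hli : LinearIndependent ℂ w :=
    LinearIndependent.of_comp (Φ ρ) (linearIndependent_of_ne_zero_of_inner_eq_zero
      (fun i => Φ_ne_zero ρ (hw0 i)) (fun i j hij => hwo i j hij))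
  let W : Module.Basis (Fin n) ℂ (Fin n → ℂ) :=
    Module.Basis.mk hli (hli.span_eq_top_of_card_eq_finrank' (by simp)).ge
  have hW : ∀ i, W i = w i := fun i => Module.Basis.mk_apply _ _ i
  choose l hl using fun i => fun b : B => hwe i ((b : P) : G) ⟨b, b.2, rfl⟩
  -- an eigenfunctional of a non-zero vector is one of the `l i`
  have huniq : ∀ (u : Fin n → ℂ) (f : B → ℂ), u ≠ 0 → (∀ b : B, ρ ((b : P) : G) u = f b • u) →
      ∃ i, l i = f := by
    intro u f hu hf
    by_contra hne
    push Not at hne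
    apply hu
    rw [← W.sum_repr u]
    refine Finset.sum_eq_zero fun i _ => ?_
    obtain ⟨b, hb⟩ := Function.ne_iff.mp (hne i)
    have h := congrArg (fun z => W.repr z i) (hf b)
    conv_lhs at h => rw [← W.sum_repr u]
    simp only [map_sum, map_smul, hW, hl, smul_smul] at h
    rw [← Finset.sum_congr rfl (fun j _ => by rw [← hW j])] at h
    simp only [map_sum, map_smul, Finsupp.coe_finsetSum, Finset.sum_apply, Finsupp.smul_apply,
      smul_eq_mul, W.repr_self, Finsupp.single_apply, mul_ite, mul_one, mul_zero, Finset.sum_ite_eq',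
      Finset.mem_univ, if_true] at h
    have : (l i b - f b) * W.repr u i = 0 := by linear_combination h
    rcases mul_eq_zero.mp this with h' | h'
    · exact absurd (sub_eq_zero.mp h') hb
    · rw [h', zero_smul]
  let Ψ := Set.range l
  haveI : Finite Ψ := Set.finite_range l
  let cb : P → B → B := fun g b => ⟨g⁻¹ * b * g, by simpa using hBn.conj_mem _ b.2 g⁻¹⟩
  have hmove : ∀ (g : P) (i : Fin n), (fun b => l i (cb g b)) ∈ Ψ := by
    intro g i
    refine huniq (ρ (g : G) (w i)) _ (fun h => hw0 i ?_) fun b => ?_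
    · have h2 := congrArg (ρ (g : G)⁻¹) h
      rwa [map_zero, ← Module.End.mul_apply, ← map_mul, inv_mul_cancel, map_one, Module.End.one_apply] at h2
    · rw [← map_smul, ← hl i (cb g b), ← Module.End.mul_apply, ← Module.End.mul_apply, ← map_mul, ← map_mul]
      simp [cb, mul_assoc]
  letI act : MulAction P Ψ :=
    { smul := fun g f => ⟨fun b => f.1 (cb g b), by obtain ⟨i, hi⟩ := f.2; rw [← hi]; exact hmove g i⟩
      one_smul := fun f => Subtype.ext (funext fun b => congrArg f.1 (by simp [cb]))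
      mul_smul := fun g h f => Subtype.ext (funext fun b => congrArg f.1 (by simp [cb, mul_assoc])) }
  have hker : (MulAction.toPermHom P Ψ).ker ≤ B := by
    intro g hg
    rw [← hC]
    refine Subgroup.mem_centralizer_iff.mpr fun b hb => ?_
    have hall : ∀ i, l i (cb g ⟨b, hb⟩) = l i ⟨b, hb⟩ := fun i => by
      have := DFunLike.congr_fun (MonoidHom.mem_ker.mp hg) (⟨l i, i, rfl⟩ : Ψ)
      exact congrFun (congrArg Subtype.val this) ⟨b, hb⟩
    have heq : ρ (((cb g ⟨b, hb⟩ : B) : P) : G) = ρ ((b : P) : G) := W.ext fun i => by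
      rw [hW, hl, hall, ← hl i ⟨b, hb⟩]
    have : g⁻¹ * b * g = b := Subtype.ext (hinj heq)
    calc b * g = g * (g⁻¹ * b * g) := by simp [mul_assoc]
      _ = g * b := by rw [this]
  have hcardΨ : Nat.card Ψ ≤ n := (Nat.card_le_card_of_surjective _ (Set.rangeFactorization_surjective (f := l))).trans (by simp)
  refine (Subgroup.index_dvd_of_le hker).trans ?_
  rw [Subgroup.index_ker]
  refine (Subgroup.card_subgroup_dvd_card _).trans ?_
  rw [Nat.card_perm]
  exact Nat.factorial_dvd_factorial hcardΨ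

/-- The explicit Jordan bound. -/
theorem jordan_bound [Fintype G] (ρ : Representation ℂ G (Fin n → ℂ)) (hinj : Function.Injective ρ) :
    ∃ A : Subgroup G, A.Normal ∧ (∀ x ∈ A, ∀ y ∈ A, x * y = y * x) ∧
      A.index ≤ n.factorial * 12 ^ (n * (Nat.primeCounting (n + 1) + 1)) := by
  classical
  obtain ⟨A, hAn, hAc, hA⟩ := frobenius_jordan ρ hinj
  refine ⟨A, hAn, hAc, ?_⟩
  have hχ : Cfsg.IsCharacter G ρ.character := ⟨n, ρ, rfl⟩
  have hfaith : ∀ g, ρ.character g = ρ.character 1 → g = 1 := fun g h =>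
    hinj ((CharBasics.eq_id_of_character_eq ρ g h).trans ρ.map_one.symm)
  have hdeg : Cfsg.charDegree ρ.character = n := by simp [Cfsg.charDegree]
  obtain ⟨H, -, hH1, hH2⟩ := exists_hall hχ hfaith hdeg ⊤
  set w := A.index with hw
  have hw0 : w ≠ 0 := Subgroup.index_ne_zero_of_finite
  -- the bound on each part of the index
  have hpart : ∀ (q : ℕ) (Q : Subgroup G), q.Prime → qpart (⊤ : Subgroup G) q ∣ Nat.card Q →
      q ^ w.factorization q ∣ (A.subgroupOf Q).index := by
    intro q Q hq hQ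
    set j := (A.subgroupOf Q).index with hj
    have h1 : Nat.card (A.subgroupOf Q) * j = Nat.card Q := Subgroup.card_mul_index _
    have h2 : Nat.card (A.subgroupOf Q) ∣ Nat.card A := by
      rw [← Subgroup.inf_subgroupOf_right, Nat.card_congr (Subgroup.subgroupOfEquivOfLe inf_le_right).toEquiv]
      exact Subgroup.card_dvd_of_le inf_le_left
    have h3 : qpart (⊤ : Subgroup G) q ∣ Nat.card A * j :=
      hQ.trans (h1 ▸ mul_dvd_mul_right h2 j)
    have hj0 : j ≠ 0 := Subgroup.index_ne_zero_of_finite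
    rw [qpart, Subgroup.card_top, ← A.card_mul_index,
      hq.pow_dvd_iff_le_factorization (mul_ne_zero Nat.card_pos.ne' hj0),
      Nat.factorization_mul Nat.card_pos.ne' hw0, Nat.factorization_mul Nat.card_pos.ne' hj0] at h3
    simp only [Finsupp.add_apply, ← hw] at h3
    rw [hq.pow_dvd_iff_le_factorization hj0]
    omega
  set S := w.primeFactors
  have hprod : w = ∏ q ∈ S, q ^ w.factorization q := Nat.prod_primeFactors_pow_factorization hw0
  refine le_of_eq_of_le hprod ?_
  rw [← Finset.prod_filter_mul_prod_filter_not S (fun q => q ≤ n + 1)]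
  have hlarge : (∏ q ∈ S with ¬ q ≤ n + 1, q ^ w.factorization q) ≤ 12 ^ n := by
    refine (Nat.le_of_dvd (Nat.pos_of_ne_zero Subgroup.index_ne_zero_of_finite) ?_).trans
      (hA H fun x hx y hy => pi_comm hχ hfaith hdeg H (fun q hq hd => by have := hH1 q hq hd; omega) hx hy)
    refine Finset.prod_dvd_of_isRelPrime ?_ fun q hq => ?_
    · intro a ha b hb hab
      simp only [Finset.coe_filter, Set.mem_setOf_eq] at ha hb
      exact Nat.coprime_iff_isRelPrime.mp (Nat.Coprime.pow _ _ ((Nat.coprime_primes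
        (Nat.prime_of_mem_primeFactors ha.1) (Nat.prime_of_mem_primeFactors hb.1)).mpr hab))
    · rw [Finset.mem_filter] at hq
      have hqp := Nat.prime_of_mem_primeFactors hq.1
      exact hpart q H hqp (hH2 q hqp (by omega))
  have hsmall : ∀ q ∈ S.filter (fun q => q ≤ n + 1),
      q ^ w.factorization q ≤ q ^ (n.factorial).factorization q * 12 ^ n := by
    intro q hq
    rw [Finset.mem_filter] at hq
    have hqp := Nat.prime_of_mem_primeFactors hq.1
    haveI := Fact.mk hqp
    obtain ⟨P, -, hP⟩ := exists_full (⊤ : Subgroup G) hqp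
    have hPp : IsPGroup q P := IsPGroup.of_card (n := (Nat.card (⊤ : Subgroup G)).factorization q) hP
    obtain ⟨B, hBP, hBc, e, he, hedvd⟩ := exists_abelian_index_dvd ρ hinj P hPp
    have h1 : q ^ w.factorization q ≤ (A.subgroupOf P).index :=
      Nat.le_of_dvd (Nat.pos_of_ne_zero Subgroup.index_ne_zero_of_finite) (hpart q P hqp (dvd_of_eq hP.symm))
    have h2 : (A.subgroupOf P).index ≤ A.relIndex B * B.relIndex P := by
      have h := Subgroup.relIndex_mul_relIndex (A ⊓ B) B P inf_le_right hBP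
      rw [Subgroup.inf_relIndex_right] at h
      rw [h]
      exact Subgroup.relIndex_le_of_le_left inf_le_left Subgroup.index_ne_zero_of_finite
    have hBe : B.relIndex P = e := by
      apply Nat.eq_of_mul_eq_mul_left (Nat.card_pos (α := B))
      rw [← he, Subgroup.relIndex, ← Nat.card_congr (Subgroup.subgroupOfEquivOfLe hBP).toEquiv]
      exact Subgroup.card_mul_index _
    have he' : e ≤ q ^ (n.factorial).factorization q := by
      refine Nat.le_of_dvd (pow_pos hqp.pos _) ?_
      obtain ⟨k, -, hk⟩ := (Nat.dvd_prime_pow hqp).mp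
        ((hP ▸ he ▸ dvd_mul_left e (Nat.card B) : e ∣ qpart (⊤ : Subgroup G) q))
      rw [hk] at hedvd ⊢
      exact Nat.pow_dvd_pow _ ((hqp.pow_dvd_iff_le_factorization n.factorial_ne_zero).mp hedvd)
    calc q ^ w.factorization q ≤ A.relIndex B * B.relIndex P := h1.trans h2
      _ ≤ 12 ^ n * q ^ (n.factorial).factorization q := by
          rw [hBe]; exact Nat.mul_le_mul (hA B hBc) he'
      _ = _ := mul_comm _ _
  have hsubset : S.filter (fun q => q ≤ n + 1) ⊆ Nat.primesBelow (n + 2) := fun q hq => by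
    rw [Finset.mem_filter] at hq
    exact Nat.mem_primesBelow.mpr ⟨by omega, Nat.prime_of_mem_primeFactors hq.1⟩
  have hsmall' : (∏ q ∈ S with q ≤ n + 1, q ^ w.factorization q) ≤
      n.factorial * (12 ^ n) ^ Nat.primeCounting (n + 1) := by
    refine (Finset.prod_le_prod' hsmall).trans ?_
    rw [Finset.prod_mul_distrib, Finset.prod_const]
    refine Nat.mul_le_mul ?_ (Nat.pow_le_pow_right (pow_pos (by norm_num) n) ?_)
    · refine Nat.le_of_dvd n.factorial_pos ?_
      refine Finset.prod_dvd_of_isRelPrime ?_ fun q _ => Nat.ordProj_dvd _ _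
      intro a ha b hb hab
      simp only [Finset.coe_filter, Set.mem_setOf_eq] at ha hb
      exact Nat.coprime_iff_isRelPrime.mp (Nat.Coprime.pow _ _ ((Nat.coprime_primes
        (Nat.prime_of_mem_primeFactors ha.1) (Nat.prime_of_mem_primeFactors hb.1)).mpr hab))
    · refine (Finset.card_le_card hsubset).trans ?_
      rw [Nat.primesBelow_card_eq_primeCounting']
      rfl
  calc (∏ q ∈ S with q ≤ n + 1, q ^ w.factorization q) * (∏ q ∈ S with ¬ q ≤ n + 1, q ^ w.factorization q)
      ≤ n.factorial * (12 ^ n) ^ Nat.primeCounting (n + 1) * 12 ^ n := Nat.mul_le_mul hsmall' hlarge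
    _ = _ := by rw [mul_assoc, ← pow_succ, ← pow_mul]

end CfsgLib.FrobJordan
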